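import Cfsg.Agent.Invol.Counting

/-!
The counting argument of Brauer and Fowler.
-/

namespace CfsgLib.Invol

variable {G : Type*} [Group G]

/-- The elements conjugating `x` to itself or to its inverse. -/
def extCentralizer (x : G) : Subgroup G where
  carrier := {g | g * x * g⁻¹ = x ∨ g * x * g⁻¹ = x⁻¹}
  one_mem' := by simp
  mul_mem' {a b} ha hb := by
    have h : a * b * x * (a * b)⁻¹ = a * (b * x * b⁻¹) * a⁻¹ := by group
    have h2 : a * x⁻¹ * a⁻¹ = (a * x * a⁻¹)⁻¹ := by group
    simp only [Set.mem_ofPred_eq] at ha hb ⊢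
    rcases hb with hb | hb <;> rcases ha with ha | ha <;> rw [h, hb] <;>
      [rw [ha]; rw [ha]; rw [h2, ha]; rw [h2, ha, inv_inv]] <;> simp
  inv_mem' {a} ha := by
    simp only [Set.mem_ofPred_eq] at ha ⊢
    rcases ha with ha | ha
    · left
      conv_lhs => rw [← ha]
      group
    · right
      have : x⁻¹ = (a * x * a⁻¹) := ha.symm
      have h2 : a * x⁻¹ * a⁻¹ = x := by
        calc a * x⁻¹ * a⁻¹ = (a * x * a⁻¹)⁻¹ := by group
          _ = x := by rw [ha, inv_inv]
      conv_lhs => rw [← h2]
      group

theorem centralizer_le_extCentralizer (x : G) :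
    Subgroup.centralizer ({x} : Set G) ≤ extCentralizer x := by
  intro g hg
  left
  rw [Subgroup.mem_centralizer_singleton_iff.1 hg]
  group

theorem card_pairs_total [Finite G] :
    ∑ᶠ x : G, Nat.card {p : G × G // orderOf p.1 = 2 ∧ orderOf p.2 = 2 ∧ p.1 * p.2 = x} =
      Nat.card {t : G // orderOf t = 2} * Nat.card {t : G // orderOf t = 2} := by
  classical
  have : Fintype G := Fintype.ofFinite G
  rw [finsum_eq_sum_of_fintype, ← Nat.card_sigma, ← Nat.card_prod]
  exact Nat.card_congr
    { toFun := fun s => (⟨s.2.1.1, s.2.2.1⟩, ⟨s.2.1.2, s.2.2.2.1⟩)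
      invFun := fun p => ⟨p.1.1 * p.2.1, (p.1.1, p.2.1), p.1.2, p.2.2, rfl⟩
      left_inv := fun s => by obtain ⟨x, ⟨p, h1, h2, rfl⟩⟩ := s; rfl
      right_inv := fun p => rfl }

theorem brauer_fowler [Finite G] (heven : Even (Nat.card G))
    (hZ : Odd (Nat.card (Subgroup.center G))) :
    ∃ H : Subgroup G, H ≠ ⊤ ∧ (H.index = 2 ∨
      2 * H.index * (Nat.card {t : G // orderOf t = 2}) ^ 2 <
        Nat.card G * (Nat.card G + Nat.card {t : G // orderOf t = 2})) := by
  classical
  have : Fintype G := Fintype.ofFinite G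
  have : Fact (Nat.Prime 2) := ⟨Nat.prime_two⟩
  by_cases hidx : ∃ H : Subgroup G, H.index = 2
  · obtain ⟨H, hH⟩ := hidx
    refine ⟨H, ?_, Or.inl hH⟩
    rintro rfl
    simp at hH
  push Not at hidx
  have hbot : (⊥ : Subgroup G) ≠ ⊤ := by
    intro h
    have hc : Nat.card ↥(⊥ : Subgroup G) = Nat.card ↥(⊤ : Subgroup G) := by rw [h]
    rw [Subgroup.card_bot, Subgroup.card_top] at hc
    rw [← hc] at heven
    exact absurd heven (by decide)
  have : Finite (Subgroup G) := inferInstance
  obtain ⟨H, hHt, hmax⟩ := (Set.toFinite {K : Subgroup G | K ≠ ⊤}).exists_maximalFor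
    (fun K : Subgroup G => Nat.card K) _ ⟨(⊥ : Subgroup G), hbot⟩
  have hmax' : ∀ K : Subgroup G, K ≠ ⊤ → Nat.card K ≤ Nat.card H := by
    intro K hK
    by_contra hlt
    have := hmax (j := K) hK (le_of_lt (not_le.1 hlt))
    simp only at this
    omega
  refine ⟨H, hHt, Or.inr ?_⟩
  set n := Nat.card G with hn
  set T := Nat.card {t : G // orderOf t = 2} with hT
  let β : G → ℕ := fun x =>
    Nat.card {p : G × G // orderOf p.1 = 2 ∧ orderOf p.2 = 2 ∧ p.1 * p.2 = x}
  have hsum : ∑ x : G, β x = T * T := by
    rw [← finsum_eq_sum_of_fintype]; exact card_pairs_total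
  -- no involution is central
  have hnc : ∀ x : G, orderOf x = 2 → Subgroup.centralizer ({x} : Set G) ≠ ⊤ := by
    intro x hx h
    have hxc : x ∈ Subgroup.center G := by
      rw [Subgroup.mem_center_iff]
      intro g
      have : g ∈ Subgroup.centralizer ({x} : Set G) := h ▸ Subgroup.mem_top g
      exact Subgroup.mem_centralizer_singleton_iff.1 this
    have := orderOf_dvd_natCard (⟨x, hxc⟩ : Subgroup.center G)
    rw [Subgroup.orderOf_mk, hx] at this
    exact Nat.not_even_iff_odd.2 hZ (even_iff_two_dvd.2 this)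
  let w : G → ℕ := fun x =>
    if x = 1 then 2 * T else if orderOf x = 2 then 2 * (Nat.card H - 2) else Nat.card H
  have hw : ∀ x : G, 2 * β x ≤ w x := by
    intro x
    by_cases h1 : x = 1
    · subst h1
      simp only [w, if_pos, β, hT]
      refine Nat.mul_le_mul_left 2 (Nat.card_le_card_of_injective (fun p => ⟨p.1.1, p.2.1⟩) ?_)
      rintro ⟨⟨s, t⟩, hs, ht, he⟩ ⟨⟨s', t'⟩, hs', ht', he'⟩ h
      simp only [Subtype.mk.injEq] at h
      subst h
      simp only at he he'
      simp [mul_left_cancel (he.trans he'.symm)]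
    by_cases h2 : orderOf x = 2
    · simp only [w, if_neg h1, if_pos h2, β]
      have hle := card_pairs_involution_le x h2
      have := hmax' _ (hnc x h2)
      omega
    simp only [w, if_neg h1, if_neg h2, β]
    by_cases hr : IsConj x x⁻¹
    · obtain ⟨g, hg⟩ := isConj_iff.1 hr
      have hgE : g ∈ extCentralizer x := Or.inr hg
      have hgC : g ∉ Subgroup.centralizer ({x} : Set G) := by
        intro hgC
        rw [Subgroup.mem_centralizer_singleton_iff] at hgC
        apply h2
        refine orderOf_eq_two ?_ h1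
        have : x = x⁻¹ := by
          calc x = g * x * g⁻¹ := by rw [hgC]; group
            _ = x⁻¹ := hg
        nth_rewrite 1 [this]
        exact inv_mul_cancel x
      obtain ⟨m, hm⟩ := Subgroup.card_dvd_of_le (centralizer_le_extCentralizer x)
      have hne : Subgroup.centralizer ({x} : Set G) ≠ extCentralizer x := fun h => hgC (h ▸ hgE)
      have hm2 : 2 ≤ m := by
        rcases m with _ | _ | m
        · exact absurd hm (by simp [Nat.card_pos.ne'])
        · exact absurd (Subgroup.eq_of_le_of_card_ge (centralizer_le_extCentralizer x)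
            (by rw [hm]; simp)) hne
        · omega
      have hEt : extCentralizer x ≠ ⊤ := by
        intro h
        have hi := Subgroup.card_mul_index (Subgroup.centralizer ({x} : Set G))
        rw [← Subgroup.card_top (G := G), ← h, hm] at hi
        have hidx2 := Nat.eq_of_mul_eq_mul_left Nat.card_pos hi
        have hle2 : m ≤ 2 := by
          -- two cosets at most
          by_contra hlt
          have hset : ∀ a : G, a ∈ extCentralizer x :=
            fun a => h ▸ Subgroup.mem_top a
          have : Nat.card (G ⧸ Subgroup.centralizer ({x} : Set G)) ≤ 2 := by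
            refine le_trans (Nat.card_le_card_of_injective
              (β := ({x, x⁻¹} : Set G)) (fun q => ⟨q.out * x * q.out⁻¹, ?_⟩) ?_) ?_
            · rcases hset q.out with h' | h' <;> simp [h']
            · intro a b hab
              simp only [Subtype.mk.injEq] at hab
              rw [← QuotientGroup.out_eq' a, ← QuotientGroup.out_eq' b, QuotientGroup.eq,
                Subgroup.mem_centralizer_singleton_iff]
              calc a.out⁻¹ * b.out * x = a.out⁻¹ * (b.out * x * b.out⁻¹) * b.out := by group
                _ = a.out⁻¹ * (a.out * x * a.out⁻¹) * b.out := by rw [hab]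
                _ = _ := by group
            · rw [Nat.card_coe_set_eq]
              exact (Set.ncard_insert_le _ _).trans (by simp)
          rw [← Subgroup.index_eq_card, hidx2] at this
          omega
        exact hidx _ (hidx2.trans (le_antisymm hle2 hm2))
      have := card_pairs_le x
      have := hmax' _ hEt
      have : 2 * Nat.card (Subgroup.centralizer ({x} : Set G)) ≤ Nat.card (extCentralizer x) := by
        rw [hm, mul_comm]; exact Nat.mul_le_mul_left _ hm2
      omega
    · rw [card_pairs_eq_zero x hr]; simp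
  have hTpos : 0 < T := by
    obtain ⟨t, ht⟩ := exists_prime_orderOf_dvd_card' 2 (even_iff_two_dvd.1 heven)
    exact Nat.card_pos_iff.2 ⟨⟨⟨t, ht⟩⟩, inferInstance⟩
  have hH2 : 2 ≤ Nat.card H := by
    obtain ⟨t, ht⟩ := exists_prime_orderOf_dvd_card' 2 (even_iff_two_dvd.1 heven)
    have h2 := card_commuting_add_one_le t
    have h4 : 0 < Nat.card {u : G // orderOf u = 2 ∧ Commute u t} :=
      Nat.card_pos_iff.2 ⟨⟨⟨t, ht, Commute.refl t⟩⟩, inferInstance⟩
    have := hmax' _ (hnc t ht)
    omega
  have hT' : (Finset.univ.filter fun x : G => orderOf x = 2).card = T := by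
    rw [hT, Nat.card_eq_fintype_card, Fintype.card_subtype]
  have h12 : (Finset.univ.filter fun x : G => x ≠ 1 ∧ orderOf x ≠ 2).card + T + 1 = n := by
    rw [← hT', hn, Nat.card_eq_fintype_card, ← Finset.card_univ]
    have := Finset.card_filter_add_card_filter_not (s := Finset.univ.erase (1 : G))
      (p := fun x : G => orderOf x = 2)
    rw [← Finset.card_erase_add_one (Finset.mem_univ (1 : G)), ← this]
    have e1 : (Finset.univ.erase (1 : G)).filter (fun x => orderOf x = 2) =
        Finset.univ.filter fun x : G => orderOf x = 2 := by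
      ext a; simp only [Finset.mem_filter, Finset.mem_erase, Finset.mem_univ, true_and, and_true]
      exact ⟨fun h => h.2, fun h => ⟨ne_one_of_orderOf h, h⟩⟩
    have e2 : (Finset.univ.erase (1 : G)).filter (fun x => ¬ orderOf x = 2) =
        Finset.univ.filter fun x : G => x ≠ 1 ∧ orderOf x ≠ 2 := by
      ext a; simp [and_comm]
    rw [e1, e2]
    ring
  have hwsum : ∑ x : G, w x = 2 * T + (T * (2 * (Nat.card H - 2)) +
      (Finset.univ.filter fun x : G => x ≠ 1 ∧ orderOf x ≠ 2).card * Nat.card H) := by
    rw [← Finset.add_sum_erase _ _ (Finset.mem_univ (1 : G))]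
    congr 1
    · simp [w]
    rw [Finset.sum_congr rfl (g := fun x => if orderOf x = 2 then 2 * (Nat.card H - 2) else Nat.card H)
      (fun x hx => by simp [w, Finset.ne_of_mem_erase hx]), Finset.sum_ite, Finset.sum_const,
      Finset.sum_const, smul_eq_mul, smul_eq_mul]
    congr 2
    · rw [← hT']
      congr 1
      ext a; simp only [Finset.mem_filter, Finset.mem_erase, Finset.mem_univ, true_and, and_true]
      exact ⟨fun h => h.2, fun h => ⟨ne_one_of_orderOf h, h⟩⟩
    · congr 1
      ext a; simp [and_comm]
  have hle : 2 * (T * T) ≤ ∑ x : G, w x := by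
    rw [← hsum, Finset.mul_sum]
    exact Finset.sum_le_sum fun x _ => hw x
  rw [hwsum] at hle
  have hidxH : Nat.card H * H.index = n := Subgroup.card_mul_index H
  have key : 2 * (T * T) < (n + T) * Nat.card H := by
    obtain ⟨h, hh⟩ : ∃ h, Nat.card H = h + 2 := ⟨Nat.card H - 2, by omega⟩
    rw [hh] at hle ⊢
    simp only [add_tsub_cancel_right] at hle
    nlinarith [h12]
  have hpos : 0 < H.index := Nat.pos_of_ne_zero Subgroup.index_ne_zero_of_finite
  calc 2 * H.index * T ^ 2 = H.index * (2 * (T * T)) := by ring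
    _ < H.index * ((n + T) * Nat.card H) := (Nat.mul_lt_mul_left hpos).2 key
    _ = n * (n + T) := by rw [← hidxH]; ring

end CfsgLib.Invol
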