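import Mathlib

/-!
Invariant subspaces of a nilpotent endomorphism whose kernel is at most a line.
-/

set_option autoImplicit false

namespace CfsgLib.Invol

variable {K V : Type*} [Field K] [AddCommGroup V] [Module K V] [FiniteDimensional K V]

theorem finrank_ker_pow_le (f : Module.End K V) (hker : Module.finrank K (LinearMap.ker f) ≤ 1) :
    ∀ k, Module.finrank K (LinearMap.ker (f ^ k)) ≤ k
  | 0 => by
    rw [pow_zero]
    rw [Module.End.one_eq_id, LinearMap.ker_id, finrank_bot]
  | k + 1 => by
    have hmap : ∀ x ∈ LinearMap.ker (f ^ (k + 1)), f x ∈ LinearMap.ker (f ^ k) := fun x hx => by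
      rw [LinearMap.mem_ker] at hx ⊢
      rwa [pow_succ, Module.End.mul_apply] at hx
    set g := f.restrict hmap with hg
    have h1 := LinearMap.finrank_range_add_finrank_ker g
    have h2 : Module.finrank K (LinearMap.range g) ≤ k :=
      (Submodule.finrank_le _).trans (finrank_ker_pow_le f hker k)
    have h3 : Module.finrank K (LinearMap.ker g) ≤ 1 := by
      refine le_trans ?_ hker
      let e : LinearMap.ker g →ₗ[K] LinearMap.ker f :=
        LinearMap.codRestrict _ ((LinearMap.ker (f ^ (k + 1))).subtype ∘ₗ (LinearMap.ker g).subtype) fun x => by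
          have := congrArg Subtype.val (LinearMap.mem_ker.1 x.2)
          rw [LinearMap.mem_ker]
          exact this
      refine LinearMap.finrank_le_finrank_of_injective (f := e) fun a b hab => ?_
      have h := congrArg Subtype.val hab
      exact Subtype.ext (Subtype.ext h)
    omega

theorem eq_ker_pow (f : Module.End K V) {n : ℕ} (hn : f ^ n = 0)
    (hker : Module.finrank K (LinearMap.ker f) ≤ 1) (W : Submodule K V) (hW : ∀ v ∈ W, f v ∈ W) :
    W = LinearMap.ker (f ^ Module.finrank K W) := by
  refine Submodule.eq_of_le_of_finrank_le (fun w hw => ?_) (finrank_ker_pow_le f hker _)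
  set g : Module.End K W := f.restrict hW with hg
  have hpow : ∀ (k : ℕ) (v : W), ((g ^ k) v : V) = (f ^ k) v := by
    intro k
    induction k with
    | zero => intro v; rfl
    | succ k ih =>
      intro v
      rw [pow_succ, pow_succ, Module.End.mul_apply, Module.End.mul_apply, ih]
      rfl
  have h1 : (⟨w, hw⟩ : W) ∈ LinearMap.ker (g ^ n) :=
    LinearMap.mem_ker.2 (Subtype.ext (by rw [hpow, hn]; rfl))
  have h2 := Module.End.ker_pow_le_ker_pow_finrank g n h1
  rw [LinearMap.mem_ker] at h2 ⊢
  rw [← hpow _ ⟨w, hw⟩, h2]
  rfl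

theorem eq_range_pow (f : Module.End K V) (hn : f ^ Module.finrank K V = 0)
    (hker : Module.finrank K (LinearMap.ker f) ≤ 1) (W : Submodule K V) (hW : ∀ v ∈ W, f v ∈ W) :
    W = LinearMap.range (f ^ (Module.finrank K V - Module.finrank K W)) := by
  have hd : Module.finrank K W ≤ Module.finrank K V := Submodule.finrank_le W
  refine (Submodule.eq_of_le_of_finrank_le (fun v hv => ?_) ?_).symm
  · obtain ⟨x, rfl⟩ := hv
    suffices h : (f ^ (Module.finrank K V - Module.finrank K W)) x ∈ LinearMap.ker (f ^ Module.finrank K W) by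
      rwa [← eq_ker_pow f hn hker W hW] at h
    rw [LinearMap.mem_ker, ← Module.End.mul_apply, ← pow_add, Nat.add_sub_cancel' hd, hn]
    rfl
  · have h1 := LinearMap.finrank_range_add_finrank_ker (f ^ (Module.finrank K V - Module.finrank K W))
    have h2 := finrank_ker_pow_le f hker (Module.finrank K V - Module.finrank K W)
    omega

end CfsgLib.Invol
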